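import Mathlib
import Cfsg.Agent.S4275
import Cfsg.Agent.Lib.ClassSize

/-! Odd order automorphisms of 2-transitive groups and twisted orbits. -/

set_option autoImplicit false
set_option linter.style.haveILetI false

namespace Cfsg.Agent.TwistedPerm

variable {G : Type*} [Group G] [Finite G] {Ω : Type*} [Finite Ω] [MulAction G Ω]

/-- Pairs of points, with `g` acting as `(g, β g)`. -/
@[ext] structure Tw (G : Type*) [Group G] (Ω : Type*) (β : MulAut G) where
  fst : Ω
  snd : Ω

instance (β : MulAut G) : MulAction G (Tw G Ω β) where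
  smul g p := ⟨g • p.fst, β g • p.snd⟩
  one_smul p := Tw.ext (one_smul G p.fst) (show β 1 • p.snd = p.snd by rw [map_one, one_smul])
  mul_smul g h p := Tw.ext (mul_smul g h p.fst)
    (show β (g * h) • p.snd = β g • β h • p.snd by rw [map_mul, mul_smul])

theorem tw_smul {β : MulAut G} (g : G) (p : Tw G Ω β) :
    g • p = ⟨g • p.fst, β g • p.snd⟩ := rfl

/-- The equivalence with ordinary pairs. -/
def twEquiv (β : MulAut G) : Tw G Ω β ≃ Ω × Ω where
  toFun p := (p.fst, p.snd)
  invFun q := ⟨q.1, q.2⟩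
  left_inv _ := rfl
  right_inv _ := rfl

instance (β : MulAut G) : Finite (Tw G Ω β) := Finite.of_equiv _ (twEquiv β).symm

/-- The number of fixed points. -/
noncomputable def fixN (Ω : Type*) [MulAction G Ω] (g : G) : ℕ := Nat.card {x : Ω // g • x = x}

/-- The number of twisted orbits on pairs. -/
noncomputable def orbN (Ω : Type*) [MulAction G Ω] (β : MulAut G) : ℕ :=
  Nat.card (Quotient (MulAction.orbitRel G (Tw G Ω β)))

theorem count_eq [Fintype G] (β : MulAut G) :
    ∑ g : G, fixN Ω g * fixN Ω (β g) = orbN Ω β * Nat.card G := by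
  classical
  haveI : Fintype (Tw G Ω β) := Fintype.ofFinite _
  haveI : ∀ g : G, Fintype (MulAction.fixedBy (Tw G Ω β) g) := fun g => Fintype.ofFinite _
  haveI : Fintype (Quotient (MulAction.orbitRel G (Tw G Ω β))) := Fintype.ofFinite _
  rw [orbN, Nat.card_eq_fintype_card, Nat.card_eq_fintype_card,
    ← MulAction.sum_card_fixedBy_eq_card_orbits_mul_card_group G (Tw G Ω β)]
  refine Finset.sum_congr rfl fun g _ => ?_
  rw [← Nat.card_eq_fintype_card, fixN, fixN, ← Nat.card_prod]
  refine Nat.card_congr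
    { toFun := fun p => ⟨⟨p.1.1, p.2.1⟩, Tw.ext p.1.2 p.2.2⟩
      invFun := fun p => (⟨p.1.fst, congrArg Tw.fst p.2⟩, ⟨p.1.snd, congrArg Tw.snd p.2⟩)
      left_inv := fun _ => rfl
      right_inv := fun _ => rfl }

theorem orbit_iff (β : MulAut G) (a b : Tw G Ω β) :
    (Quotient.mk (MulAction.orbitRel G (Tw G Ω β)) a = Quotient.mk _ b) ↔
      ∃ g : G, g • b.fst = a.fst ∧ β g • b.snd = a.snd := by
  rw [Quotient.eq, MulAction.orbitRel_apply, MulAction.mem_orbit_iff]
  simp only [Tw.ext_iff, tw_smul]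

theorem orbN_one [Nontrivial Ω] (h2 : MulAction.IsMultiplyPretransitive G Ω 2) :
    orbN Ω (1 : MulAut G) = 2 := by
  classical
  rw [MulAction.is_two_pretransitive_iff] at h2
  have hex : ∀ a : Ω, ∃ b, a ≠ b := fun a => (exists_ne a).imp fun b hb => hb.symm
  obtain ⟨u, v, huv⟩ := exists_pair_ne Ω
  rw [orbN, Nat.card_eq_two_iff]
  refine ⟨Quotient.mk _ ⟨u, u⟩, Quotient.mk _ ⟨u, v⟩, ?_, ?_⟩
  · intro h
    obtain ⟨g, hg1, hg2⟩ := (orbit_iff _ _ _).1 h
    exact huv (MulAction.injective g (hg1.trans hg2.symm))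
  · refine Set.eq_univ_of_forall fun q => ?_
    induction q using Quotient.inductionOn with
    | h p =>
      rcases p with ⟨a, b⟩
      simp only [Set.mem_insert_iff, Set.mem_singleton_iff, orbit_iff]
      by_cases hab : a = b
      · subst hab
        obtain ⟨c, hc⟩ := hex a
        obtain ⟨g, hg, -⟩ := h2 huv hc
        exact Or.inl ⟨g, hg, hg⟩
      · obtain ⟨g, hg, hg'⟩ := h2 huv hab
        exact Or.inr ⟨g, hg, hg'⟩

theorem fixN_twist [Nontrivial Ω] (h2 : MulAction.IsMultiplyPretransitive G Ω 2) (α : MulAut G)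
    (h : 2 ≤ orbN Ω α) (g : G) : fixN Ω (α g) = fixN Ω g := by
  classical
  haveI : Fintype G := Fintype.ofFinite G
  have h1 := count_eq (Ω := Ω) (1 : MulAut G)
  rw [orbN_one h2] at h1
  simp only [MulAut.one_apply] at h1
  have h2' : ∑ g : G, fixN Ω (α g) * fixN Ω (α g) = 2 * Nat.card G := by
    rw [← h1]; exact Equiv.sum_comp α.toEquiv (fun g => fixN Ω g * fixN Ω g)
  have h3 : 2 * Nat.card G ≤ ∑ g : G, fixN Ω g * fixN Ω (α g) := by
    rw [count_eq (Ω := Ω) α]; exact Nat.mul_le_mul_right _ h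
  have h1z : ∑ g : G, (fixN Ω g : ℤ) * fixN Ω g = 2 * Nat.card G := by exact_mod_cast h1
  have h2z : ∑ g : G, (fixN Ω (α g) : ℤ) * fixN Ω (α g) = 2 * Nat.card G := by exact_mod_cast h2'
  have h3z : 2 * (Nat.card G : ℤ) ≤ ∑ g : G, (fixN Ω g : ℤ) * fixN Ω (α g) := by
    exact_mod_cast h3
  have key : ∑ g : G, ((fixN Ω g : ℤ) - fixN Ω (α g)) ^ 2 ≤ 0 := by
    have e : ∀ g : G, ((fixN Ω g : ℤ) - fixN Ω (α g)) ^ 2 = (fixN Ω g : ℤ) * fixN Ω g +
        (fixN Ω (α g) : ℤ) * fixN Ω (α g) - 2 * ((fixN Ω g : ℤ) * fixN Ω (α g)) := fun g => by ring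
    simp only [e, Finset.sum_sub_distrib, Finset.sum_add_distrib, ← Finset.mul_sum]
    linarith
  have h0 := (Finset.sum_eq_zero_iff_of_nonneg (fun i _ => sq_nonneg _)).1
    (le_antisymm key (Finset.sum_nonneg fun i _ => sq_nonneg _)) g (Finset.mem_univ g)
  have := pow_eq_zero_iff (two_ne_zero) |>.1 h0
  omega

theorem orbN_pow [Nontrivial Ω] (h2 : MulAction.IsMultiplyPretransitive G Ω 2) (α : MulAut G)
    (h : 2 ≤ orbN Ω α) (j : ℕ) : orbN Ω (α ^ j) = 2 := by
  classical
  haveI : Fintype G := Fintype.ofFinite G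
  have hj : ∀ g, fixN Ω ((α ^ j) g) = fixN Ω g := by
    intro g
    induction j with
    | zero => rfl
    | succ j ih => rw [pow_succ', MulAut.mul_apply, fixN_twist h2 α h, ih]
  have h1 := count_eq (Ω := Ω) (α ^ j)
  have h0 := count_eq (Ω := Ω) (1 : MulAut G)
  rw [orbN_one h2] at h0
  simp only [hj] at h1
  simp only [MulAut.one_apply] at h0
  rw [h0] at h1
  exact (Nat.eq_of_mul_eq_mul_right Nat.card_pos h1).symm

theorem three_pairs {β : MulAut G} (h : orbN Ω β = 2) (a b c : Tw G Ω β)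
    (hac : Quotient.mk (MulAction.orbitRel G (Tw G Ω β)) a ≠ Quotient.mk _ c)
    (hbc : Quotient.mk (MulAction.orbitRel G (Tw G Ω β)) b ≠ Quotient.mk _ c) :
    ∃ g : G, g • b.fst = a.fst ∧ β g • b.snd = a.snd := by
  rw [← orbit_iff]
  rw [orbN, Nat.card_eq_two_iff] at h
  obtain ⟨x, y, -, hu⟩ := h
  have hm : ∀ q, q = x ∨ q = y := fun q => by
    have := hu ▸ Set.mem_univ q
    simpa using this
  rcases hm (Quotient.mk _ a) with h1 | h1 <;> rcases hm (Quotient.mk _ b) with h2 | h2 <;>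
    rcases hm (Quotient.mk _ c) with h3 | h3 <;> simp_all

theorem index_comap_stabilizer {U : Type*} [Group U] (φ : U →* G) (x : Ω) :
    ((MulAction.stabilizer G x).comap φ).index = (Set.range fun u : U => φ u • x).ncard := by
  letI : MulAction U Ω := MulAction.compHom Ω φ
  exact MulAction.index_stabilizer U x

/-- **Main lemma**: the twisted stabiliser fixes a point. -/
theorem exists_fixed_sq [Nontrivial Ω] (h2 : MulAction.IsMultiplyPretransitive G Ω 2) (o ω : Ω)
    (α : MulAut G)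
    (hk : ({y : Ω | ∃ g : G, g • o = o ∧ α g • ω = y}.ncard).Coprime (Nat.card Ω)) :
    ∃ z : Ω, ∀ g : G, g • o = o → (α * α) g • z = z := by
  classical
  have htr : MulAction.IsPretransitive G Ω := by
    rw [MulAction.is_two_pretransitive_iff] at h2
    refine ⟨fun a b => ?_⟩
    obtain ⟨c, hc⟩ := exists_ne a
    obtain ⟨e, he⟩ := exists_ne b
    obtain ⟨g, hg, -⟩ := h2 hc.symm he.symm
    exact ⟨g, hg⟩
  let R : Ω → Ω → Prop := fun x y => ∃ g : G, g • o = x ∧ α g • ω = y
  have Rinv : ∀ (g : G) {x y : Ω}, R x y → R (g • x) (α g • y) := by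
    rintro g x y ⟨u, h1, h1'⟩
    exact ⟨g * u, by rw [mul_smul, h1], by rw [map_mul, mul_smul, h1']⟩
  have Rinv' : ∀ (g : G) {x y : Ω}, R (g • x) (α g • y) → R x y := by
    intro g x y h
    have := Rinv g⁻¹ h
    simpa [map_inv] using this
  set k := {y : Ω | ∃ g : G, g • o = o ∧ α g • ω = y}.ncard with hkdef
  have hkn : ∀ x, {y | R x y}.ncard = k := by
    intro x
    obtain ⟨g, rfl⟩ := MulAction.exists_smul_eq G o x
    have : {y | R (g • o) y} = (fun y => α g • y) '' {y | R o y} := by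
      ext y
      constructor
      · intro h
        refine ⟨(α g)⁻¹ • y, Rinv' g ?_, smul_inv_smul _ _⟩
        rw [smul_inv_smul]; exact h
      · rintro ⟨z, hz, rfl⟩; exact Rinv g hz
    rw [this, Set.ncard_image_of_injective _ (MulAction.injective _)]
  have hkpos : 0 < k := (Set.ncard_pos).2 ⟨ω, 1, one_smul _ _, by rw [map_one, one_smul]⟩
  have hklt : k < Nat.card Ω := by
    refine lt_of_le_of_ne (Set.ncard_le_card _) fun h => ?_
    rw [h, Nat.coprime_self] at hk
    exact (Finite.one_lt_card (α := Ω)).ne' hk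
  have hkm : ∀ y, {x | R x y}.ncard = k := by
    have hconst : ∀ y y', {x | R x y}.ncard = {x | R x y'}.ncard := by
      intro y y'
      obtain ⟨h, rfl⟩ := MulAction.exists_smul_eq G y y'
      obtain ⟨g, rfl⟩ := α.surjective h
      have : {x | R x (α g • y)} = (fun x => g • x) '' {x | R x y} := by
        ext x
        constructor
        · intro hx
          refine ⟨g⁻¹ • x, Rinv' g ?_, smul_inv_smul _ _⟩
          rw [smul_inv_smul]; exact hx
        · rintro ⟨z, hz, rfl⟩; exact Rinv g hz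
      rw [this, Set.ncard_image_of_injective _ (MulAction.injective _)]
    intro y
    haveI : Fintype Ω := Fintype.ofFinite Ω
    have h1 : Nat.card {p : Ω × Ω // R p.1 p.2} = Fintype.card Ω * k := by
      rw [Nat.card_congr (Equiv.subtypeProdEquivSigmaSubtype R), Nat.card_sigma,
        Finset.sum_congr rfl (g := fun _ => k) (fun x _ =>
          show Nat.card {b // R x b} = k from (Nat.card_coe_set_eq {y | R x y}).trans (hkn x))]
      simp
    have h1' : Nat.card {p : Ω × Ω // R p.1 p.2} = Fintype.card Ω * {x | R x y}.ncard := by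
      rw [Nat.card_congr (show {p : Ω × Ω // R p.1 p.2} ≃ Σ b, {a // R a b} from
          ((Equiv.prodComm Ω Ω).subtypeEquiv (q := fun p => R p.2 p.1)
            fun p => Iff.rfl).trans (Equiv.subtypeProdEquivSigmaSubtype fun b a => R a b)),
        Nat.card_sigma, Finset.sum_congr rfl (g := fun _ => {x | R x y}.ncard)
          (fun z _ => show Nat.card {a // R a z} = {x | R x y}.ncard from
            (Nat.card_coe_set_eq {x | R x z}).trans (hconst z y))]
      simp
    exact Nat.eq_of_mul_eq_mul_left Fintype.card_pos (h1'.symm.trans h1)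
  have hexC : ∀ x, ∃ y, ¬ R x y := by
    intro x
    by_contra hcon
    push Not at hcon
    have := hkn x
    rw [show {y | R x y} = Set.univ from Set.eq_univ_of_forall hcon, Set.ncard_univ] at this
    omega
  have hexN : ∀ x, ∃ y, R x y := fun x => Set.nonempty_of_ncard_ne_zero (s := {y | R x y})
    (by rw [hkn]; omega)
  have horb2 : 2 ≤ orbN Ω α := by
    rw [orbN]
    haveI : Fintype (Quotient (MulAction.orbitRel G (Tw G Ω α))) := Fintype.ofFinite _
    rw [Nat.card_eq_fintype_card]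
    obtain ⟨c, hc⟩ := hexC o
    refine Fintype.one_lt_card_iff.2 ⟨Quotient.mk _ ⟨o, c⟩, Quotient.mk _ ⟨o, ω⟩, fun h => hc ?_⟩
    exact (orbit_iff _ _ _).1 h
  have hne : ∀ {x z x' w : Ω}, ¬ R x z → R x' w →
      Quotient.mk (MulAction.orbitRel G (Tw G Ω α)) ⟨x, z⟩ ≠ Quotient.mk _ ⟨x', w⟩ := by
    intro x z x' w hz hw h
    obtain ⟨g, h1, h1'⟩ := (orbit_iff _ _ _).1 h
    simp only at h1 h1'
    exact hz (h1 ▸ h1' ▸ Rinv g hw)
  -- non-neighbours of `y` form one twisted orbit of the stabiliser of an incident pair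
  have hC : ∀ {x y z z' : Ω}, R x y → ¬ R y z → ¬ R y z' →
      ∃ g : G, g • x = x ∧ α g • y = y ∧ α (α g) • z = z' := by
    intro x y z z' hxy hz hz'
    let U := MulAction.stabilizer G y
    let φ1 : U →* G := α.symm.toMonoidHom.comp U.subtype
    let φ2 : U →* G := α.toMonoidHom.comp U.subtype
    have hone : orbN Ω α = 2 := by simpa using orbN_pow h2 α horb2 1
    have htrans : ∀ w w', ¬ R y w → ¬ R y w' → ∃ u : U, φ2 u • w = w' := by
      intro w w' hw hw'
      obtain ⟨v, hv⟩ := hexN y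
      obtain ⟨g, h1, h1'⟩ := three_pairs hone ⟨y, w'⟩ ⟨y, w⟩ ⟨y, v⟩ (hne hw' hv) (hne hw hv)
      exact ⟨⟨g, h1⟩, h1'⟩
    have e1 : ((MulAction.stabilizer G x).comap φ1).index = k := by
      rw [index_comap_stabilizer, ← hkm y]
      congr 1
      ext w
      constructor
      · rintro ⟨⟨u, hu⟩, rfl⟩
        obtain ⟨g, rfl⟩ := α.surjective u
        show R (α.symm (α g) • x) y
        rw [α.symm_apply_apply]
        have := Rinv g hxy
        rwa [show α g • y = y from hu] at this
      · rintro ⟨g, h1, h1'⟩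
        obtain ⟨g', h2', h2''⟩ := hxy
        refine ⟨⟨α (g * g'⁻¹), ?_⟩, ?_⟩
        · show α (g * g'⁻¹) • y = y
          rw [map_mul, map_inv, mul_smul, show (α g')⁻¹ • y = ω from inv_smul_eq_iff.2 h2''.symm,
            h1']
        · show α.symm (α (g * g'⁻¹)) • x = w
          rw [α.symm_apply_apply, mul_smul, show g'⁻¹ • x = o from inv_smul_eq_iff.2 h2'.symm, h1]
    have e2 : ((MulAction.stabilizer G z).comap φ2).index = Nat.card Ω - k := by
      rw [index_comap_stabilizer, ← hkn y, ← Set.ncard_compl]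
      congr 1
      ext w
      constructor
      · rintro ⟨⟨u, hu⟩, rfl⟩ hw
        apply hz
        have := Rinv u⁻¹ hw
        simp only [map_inv] at this
        rwa [show u⁻¹ • y = y from inv_smul_eq_iff.2 (hu : u • y = y).symm,
          show (α u)⁻¹ • (φ2 ⟨u, hu⟩ • z) = z from inv_smul_smul _ _] at this
      · intro hw
        exact htrans z w hz hw
    have hcop : ((MulAction.stabilizer G x).comap φ1).index.Coprime
        ((MulAction.stabilizer G z).comap φ2).index := by
      rw [e1, e2, Nat.coprime_sub_self_right hklt.le]; exact hk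
    obtain ⟨u, hu⟩ := htrans z z' hz hz'
    obtain ⟨a, ha, b, hb, rfl⟩ := Cfsg.Agent.ClassSize.mul_eq_univ_of_coprime_index hcop u
    refine ⟨φ1 a, ha, ?_, ?_⟩
    · show α (α.symm (a : G)) • y = y
      rw [α.apply_symm_apply]; exact a.2
    · show α (α (α.symm (a : G))) • z = z'
      rw [α.apply_symm_apply]
      rw [map_mul, mul_smul, show φ2 b • z = z from hb] at hu
      exact hu
  obtain ⟨y₀, hy₀⟩ := hexN o
  obtain ⟨c₀, hc₀⟩ := hexC y₀
  let cls : Ω → Quotient (MulAction.orbitRel G (Tw G Ω (α * α))) := fun z =>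
    Quotient.mk _ ⟨o, z⟩
  have hcls : ∀ (g : G) (z : Ω), g • o = o → cls ((α * α) g • z) = cls z := fun g z hg =>
    (orbit_iff _ _ _).2 ⟨g, hg, rfl⟩
  have hC0 : ∀ z, ¬ R y₀ z → cls z = cls c₀ := by
    intro z hz
    obtain ⟨g, h1, -, h1'⟩ := hC hy₀ hc₀ hz
    rw [← hcls g c₀ h1, show (α * α) g • c₀ = z from h1']
  obtain ⟨z, hz⟩ : ∃ z, cls z ≠ cls c₀ := by
    by_contra hcon
    push Not at hcon
    have h := orbN_pow h2 α horb2 2
    rw [pow_two, orbN, Nat.card_eq_two_iff] at h
    obtain ⟨q, q', hq, -⟩ := h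
    apply hq
    have hall : ∀ r : Quotient (MulAction.orbitRel G (Tw G Ω (α * α))), r = cls c₀ := by
      intro r
      induction r using Quotient.inductionOn with
      | h p =>
        obtain ⟨g, hg⟩ := MulAction.exists_smul_eq G o p.fst
        rw [← hcon ((((α * α) g))⁻¹ • p.snd)]
        exact (orbit_iff _ _ _).2 ⟨g, hg, smul_inv_smul _ _⟩
    rw [hall q, hall q']
  have hsub : ∀ z, cls z ≠ cls c₀ → {x | R x z} = {y | R o y} := by
    intro z hz
    refine (Set.eq_of_subset_of_ncard_le (fun y hy => ?_) (by rw [hkn, hkm]) (Set.toFinite _)).symm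
    obtain ⟨g1, ha, ha'⟩ := (hy : R o y)
    obtain ⟨g0, hb, hb'⟩ := hy₀
    set g := g1 * g0⁻¹ with hg
    have hgo : g • o = o := by
      rw [hg, mul_smul, show g0⁻¹ • o = o from inv_smul_eq_iff.2 hb.symm, ha]
    have hgy : α g • y₀ = y := by
      rw [hg, map_mul, map_inv, mul_smul,
        show (α g0)⁻¹ • y₀ = ω from inv_smul_eq_iff.2 hb'.symm, ha']
    show R y z
    by_contra hyz
    apply hz
    have h1 : ¬ R y₀ (((α * α) g)⁻¹ • z) := by
      intro h
      apply hyz
      have := Rinv (α g) h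
      rwa [hgy, show α (α g) = (α * α) g from rfl, smul_inv_smul] at this
    rw [← hC0 _ h1]
    have := hcls g (((α * α) g)⁻¹ • z) hgo
    rwa [smul_inv_smul] at this
  have hinj : ∀ a b, {x | R x a} = {x | R x b} → a = b := by
    intro a b hab
    by_contra hne'
    rw [MulAction.is_two_pretransitive_iff] at h2
    have hall : ∀ c d, c ≠ d → {x | R x c} = {x | R x d} := by
      intro c d hcd
      obtain ⟨h, hh1, hh2⟩ := h2 hne' hcd
      obtain ⟨g, rfl⟩ := α.surjective h
      ext x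
      have := Set.ext_iff.1 hab (g⁻¹ • x)
      simp only [Set.mem_setOf_eq] at this ⊢
      rw [← hh1, ← hh2]
      constructor
      · intro hx
        have h := Rinv g (this.1 (Rinv' g (by rwa [smul_inv_smul])))
        rwa [smul_inv_smul] at h
      · intro hx
        have h := Rinv g (this.2 (Rinv' g (by rwa [smul_inv_smul])))
        rwa [smul_inv_smul] at h
    obtain ⟨x, hx⟩ : ∃ x, ¬ R x a := by
      by_contra hcon
      push Not at hcon
      have := hkm a
      rw [show {x | R x a} = Set.univ from Set.eq_univ_of_forall hcon, Set.ncard_univ] at this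
      omega
    obtain ⟨y, hy⟩ := hexN x
    by_cases hya : y = a
    · exact hx (hya ▸ hy)
    · exact hx ((Set.ext_iff.1 (hall y a hya) x).1 hy)
  refine ⟨z, fun g hg => hinj _ _ ?_⟩
  rw [hsub _ (by rw [hcls g z hg]; exact hz), hsub z hz]

theorem induced_pow {Ω : Type*} (G : Subgroup (Equiv.Perm Ω)) (β : MulAut G) (σ : Equiv.Perm Ω)
    (hσ : ∀ g : G, ((β g : G) : Equiv.Perm Ω) = σ * (g : Equiv.Perm Ω) * σ⁻¹) (j : ℕ) :
    ∀ g : G, (((β ^ j) g : G) : Equiv.Perm Ω) = σ ^ j * (g : Equiv.Perm Ω) * (σ ^ j)⁻¹ := by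
  induction j with
  | zero => intro g; simp
  | succ j ih =>
    intro g
    rw [pow_succ, MulAut.mul_apply, ih, hσ, pow_succ, mul_inv_rev]
    simp only [mul_assoc]

theorem induced_main {Ω : Type*} [Fintype Ω] (G : Subgroup (Equiv.Perm Ω))
    (h2 : MulAction.IsMultiplyPretransitive G Ω 2) (o : Ω) (α : MulAut G) (hα : Odd (orderOf α))
    (ω : Ω)
    (hk : (Nat.card (MulAction.orbit ((MulAction.stabilizer G o).map α.toMonoidHom) ω)).Coprime
      (Fintype.card Ω)) :
    (∃ σ : Equiv.Perm Ω, σ ∈ Subgroup.normalizer (G : Set (Equiv.Perm Ω)) ∧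
        ∀ g : G, ((α g : G) : Equiv.Perm Ω) = σ * (g : Equiv.Perm Ω) * σ⁻¹) ∧
      (Nat.card (MulAction.orbit ((MulAction.stabilizer G o).map α.toMonoidHom) ω) = 1 ∨
        Nat.card (MulAction.orbit ((MulAction.stabilizer G o).map α.toMonoidHom) ω) =
          Fintype.card Ω - 1) := by
  classical
  have horbit : MulAction.orbit ((MulAction.stabilizer G o).map α.toMonoidHom) ω =
      {y : Ω | ∃ g : G, g • o = o ∧ α g • ω = y} := by
    ext y
    constructor
    · rintro ⟨⟨_, g, hg, rfl⟩, rfl⟩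
      exact ⟨g, hg, rfl⟩
    · rintro ⟨g, hg, rfl⟩
      exact ⟨⟨α g, g, hg, rfl⟩, rfl⟩
  rw [horbit, Nat.card_coe_set_eq] at hk ⊢
  rcases subsingleton_or_nontrivial Ω with hs | hn
  · refine ⟨⟨1, Subgroup.one_mem _, fun g => ?_⟩, Or.inl ?_⟩
    · exact Equiv.ext fun x => Subsingleton.elim _ _
    · rw [Set.ncard_eq_one]
      exact ⟨ω, Set.eq_singleton_iff_unique_mem.2
        ⟨⟨1, one_smul _ _, by simp⟩, fun y _ => Subsingleton.elim _ _⟩⟩
  haveI : MulAction.IsPretransitive G Ω := by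
    refine ⟨fun a b => ?_⟩
    have h2' : ∀ {a b c d : Ω}, a ≠ b → c ≠ d → ∃ g : G, g • a = c ∧ g • b = d :=
      fun {a b c d} => MulAction.is_two_pretransitive_iff.1 h2
    obtain ⟨c, hc⟩ := exists_ne a
    obtain ⟨e, he⟩ := exists_ne b
    obtain ⟨g, hg, -⟩ := h2' hc.symm he.symm
    exact ⟨g, hg⟩
  have htr : MulAction.IsPretransitive G Ω := inferInstance
  obtain ⟨z, hz⟩ := exists_fixed_sq h2 o ω α (by rwa [Nat.card_eq_fintype_card])
  obtain ⟨σ, hσN, hσ⟩ := (Cfsg.Agent.S4275.result G htr o (α * α)).2 ⟨z, by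
    rintro _ ⟨g, hg, rfl⟩
    exact hz g hg⟩
  obtain ⟨m, hm⟩ := hα
  have hpow : (α * α) ^ (m + 1) = α := by
    rw [← pow_two, ← pow_mul, show 2 * (m + 1) = orderOf α + 1 by omega, pow_succ,
      pow_orderOf_eq_one, one_mul]
  have hσ' := induced_pow G (α * α) σ hσ (m + 1)
  rw [hpow] at hσ'
  refine ⟨⟨σ ^ (m + 1), Subgroup.pow_mem _ hσN _, hσ'⟩, ?_⟩
  obtain ⟨w, hw⟩ := (Cfsg.Agent.S4275.result G htr o α).1 ⟨_, Subgroup.pow_mem _ hσN _, hσ'⟩
  have hw' : ∀ g : G, g • o = o → α g • w = w := fun g hg => hw _ ⟨g, hg, rfl⟩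
  have heq : (MulAction.stabilizer G o).map α.toMonoidHom = MulAction.stabilizer G w := by
    refine Subgroup.eq_of_le_of_card_ge hw (le_of_eq ?_)
    obtain ⟨g, hg⟩ := MulAction.exists_smul_eq G o w
    rw [← hg, MulAction.stabilizer_smul_eq_stabilizer_map_conj,
      Subgroup.card_map_of_injective (MulAut.conj g).injective,
      Subgroup.card_map_of_injective α.injective]
  by_cases hωw : ω = w
  · left
    rw [Set.ncard_eq_one]
    refine ⟨ω, Set.eq_singleton_iff_unique_mem.2 ⟨⟨1, one_smul _ _, by simp⟩, ?_⟩⟩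
    rintro y ⟨g, hg, rfl⟩
    rw [hωw]; exact hw' g hg
  · right
    have hset : {y : Ω | ∃ g : G, g • o = o ∧ α g • ω = y} = {w}ᶜ := by
      ext y
      constructor
      · rintro ⟨g, hg, rfl⟩ (h : α g • ω = w)
        exact hωw (MulAction.injective (α g) (h.trans (hw' g hg).symm))
      · intro hy
        obtain ⟨h, h1, h1'⟩ := MulAction.is_two_pretransitive_iff.1 h2 hωw hy
        obtain ⟨g, hg, rfl⟩ : h ∈ (MulAction.stabilizer G o).map α.toMonoidHom := heq.ge h1'
        exact ⟨g, hg, h1⟩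
    rw [hset, Set.ncard_compl, Set.ncard_singleton, Nat.card_eq_fintype_card]

end Cfsg.Agent.TwistedPerm
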